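import Cfsg.Agent.H251.E6.LInv3
import Cfsg.Agent.H251.E6.Last
import Cfsg.Agent.H251.E6.Dim
import Cfsg.Agent.H163.E6.Sit

/-!
# S5927, S5928: covers of `A₇`, characteristic at least 7 (helper251)
-/

set_option autoImplicit false

namespace Cfsg.Agent.H251.E6

open Cfsg Cfsg.Lie Module Equiv
open Cfsg.Agent.ChevalleyStructure.E6Min.Tables Cfsg.Agent.ChevalleyStructure.E6Min.Basic
  Cfsg.Agent.ChevalleyStructure.E6Min.Adjoint
open Cfsg.Agent.H952.F4 (ev sh cr tf GenT)
open Cfsg.Agent.H163.E6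
open Cfsg.Agent.H952.F4.Kill (zz cc g1 r3 y7 z7)
open Cfsg.Agent.H65.E6Emb (emb coe_emb emb_id)
open scoped Matrix commutatorElement

universe u v

/-- the preimage of the alternating group -/
noncomputable abbrev Pre {F : Type u} [Field F] {n : ℕ} (φ : ↥(alternatingGroup (Fin n)) →* ↥(chevE6.group F)) :
    Subgroup ↥(Zgrp F) := φ.range.comap (ad F)

section

variable {F : Type u} [Field F] [Finite F] {φ : A7 →* ↥(chevE6.group F)}

theorem commutator_eq_top {G : Type*} [Group G] {B : Subgroup G} (h : ⁅B, B⁆ = B) : commutator ↥B = ⊤ := by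
  apply Subgroup.map_injective B.subtype_injective
  rw [commutator_def, Subgroup.map_commutator, ← MonoidHom.range_eq_map, Subgroup.range_subtype, h]

/-- an element of order 5 with normal closure the whole preimage -/
theorem exists_five (hφ : Function.Injective φ) {ω : Fˣ} (hc : Cover φ ω) :
    ∃ g h : ↥(Pre φ), g ^ 5 = 1 ∧ h * g * h⁻¹ = g ^ 2 ∧ ∀ N : Subgroup ↥(Pre φ), N.Normal → g ∈ N → N = ⊤ := by
  have hperf := commutator_eq_top (Cov.perfect (by norm_num) hφ hc)
  have hsurj := Cov.pr_surjective hφ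
  obtain ⟨x0, hx0⟩ := hsurj zz
  obtain ⟨y, hy⟩ := hsurj cc
  have hker : ∀ w : ↥(Pre φ), Cov.pr hφ w = 1 → w ^ 3 = 1 ∧ ∀ b : ↥(Pre φ), b * w = w * b := by
    intro w hw
    rw [Cov.pr_eq_one] at hw
    exact ⟨Subtype.ext (Cov.ker_pow hw), fun b => Subtype.ext (Cov.ker_comm hw _)⟩
  have h15 : (x0 ^ 5) ^ 3 = 1 := (hker _ (by rw [map_pow, hx0, H952.F4.Kill.zz_pow])).1
  set g := x0 ^ 6 with hg
  have hg5 : g ^ 5 = 1 := by
    rw [hg, ← pow_mul, show 6 * 5 = 5 * 3 * 2 by norm_num, pow_mul, pow_mul, h15, one_pow]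
  have hgz : Cov.pr hφ g = zz := by
    rw [hg, map_pow, hx0, show 6 = 5 + 1 by norm_num, pow_add, H952.F4.Kill.zz_pow, one_mul, pow_one]
  refine ⟨g, y, hg5, ?_, ?_⟩
  · set w := (g ^ 2)⁻¹ * (y * g * y⁻¹) with hw
    have hw1 : Cov.pr hφ w = 1 := by
      rw [hw, map_mul, map_mul, map_mul, map_inv, map_inv, map_pow, hgz, hy, H952.F4.Kill.cc_zz, inv_mul_cancel]
    obtain ⟨hw3, hwc⟩ := hker w hw1
    have e1 : y * g * y⁻¹ = g ^ 2 * w := by rw [hw, mul_inv_cancel_left]
    have hw5 : w ^ 5 = 1 := by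
      have h1 : (y * g * y⁻¹) ^ 5 = 1 := by rw [conj_pow, hg5, mul_one, mul_inv_cancel]
      have hcomm : Commute (g ^ 2) w := hwc _
      rw [e1, hcomm.mul_pow, ← pow_mul, mul_comm 2 5, pow_mul, hg5, one_pow, one_mul] at h1
      exact h1
    have hw1' : w = 1 := by
      have h1 : w ^ 6 = 1 := by rw [show 6 = 3 * 2 by norm_num, pow_mul, hw3, one_pow]
      rwa [show 6 = 5 + 1 by norm_num, pow_add, hw5, one_mul, pow_one] at h1
    rw [e1, hw1', mul_one]
  · intro N hN hgN
    have hS : IsSimpleGroup A7 := alternatingGroup.isSimpleGroup (by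
      rw [Nat.card_eq_fintype_card, Fintype.card_fin]; norm_num)
    have hmap : (N.map (Cov.pr hφ)).Normal := hN.map _ hsurj
    have htop : N.map (Cov.pr hφ) = ⊤ := by
      rcases hS.eq_bot_or_eq_top_of_normal _ hmap with h | h
      · exfalso
        have : zz ∈ N.map (Cov.pr hφ) := ⟨g, hgN, hgz⟩
        rw [h, Subgroup.mem_bot] at this
        exact zz_ne this
      · exact h
    have hcomm : commutator ↥(Pre φ) ≤ N := by
      rw [commutator_def, Subgroup.commutator_le]
      intro a _ b _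
      have key : ∀ a : ↥(Pre φ), ∃ n ∈ N, ∃ w : ↥(Pre φ), (∀ b : ↥(Pre φ), b * w = w * b) ∧ a = n * w := by
        intro a
        have h1 : Cov.pr hφ a ∈ N.map (Cov.pr hφ) := by rw [htop]; trivial
        obtain ⟨n, hn, hna⟩ := h1
        refine ⟨n, hn, n⁻¹ * a, (hker _ ?_).2, by rw [mul_inv_cancel_left]⟩
        rw [map_mul, map_inv, hna, inv_mul_cancel]
      obtain ⟨n, hn, w, hw, rfl⟩ := key a
      obtain ⟨m, hm, w', hw', rfl⟩ := key b
      have e : ⁅n * w, m * w'⁆ = n * (m * n⁻¹ * m⁻¹) := by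
        rw [commutatorElement_def]
        have e1 : (n * w)⁻¹ = w⁻¹ * n⁻¹ := mul_inv_rev _ _
        have e2 : (m * w')⁻¹ = w'⁻¹ * m⁻¹ := mul_inv_rev _ _
        rw [e1, e2]
        have c1 : n * w * (m * w') = n * m * w' * w := by
          rw [mul_assoc n w, ← hw (m * w')]
          simp only [mul_assoc]
        calc n * w * (m * w') * (w⁻¹ * n⁻¹) * (w'⁻¹ * m⁻¹)
            = n * m * w' * n⁻¹ * w'⁻¹ * m⁻¹ := by rw [c1]; group
          _ = n * m * (w' * n⁻¹) * w'⁻¹ * m⁻¹ := by simp only [mul_assoc]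
          _ = n * m * (n⁻¹ * w') * w'⁻¹ * m⁻¹ := by rw [← hw' n⁻¹]
          _ = n * (m * n⁻¹ * m⁻¹) := by group
      rw [e]
      exact mul_mem hn (hN.conj_mem _ (inv_mem hn) m)
    rw [hperf] at hcomm
    exact top_le_iff.1 hcomm

/-- the dimensions of the stable subspaces -/
theorem stable_dim (hφ : Function.Injective φ) {ω : Fˣ} (hc : Cover φ ω) {K : Type v} [Field K] (f : F →+* K)
    (h5 : (5 : F) ≠ 0) (W : Submodule K (I27 → K)) (hW : W ≠ ⊥)
    (hst : ∀ b ∈ Pre φ, ∀ w ∈ W, V K (emb f b) w ∈ W) : 3 ∣ finrank K W ∧ 6 ≤ finrank K W := by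
  have hperf := Cov.perfect (by norm_num) hφ hc
  obtain ⟨g, h, hg, hh, hN⟩ := exists_five hφ hc
  obtain ⟨hω1, hω3, z, hz, hzP⟩ := hc
  rw [hperf] at hzP
  let ρ : Representation K ↥(Pre φ) ↥W :=
    { toFun := fun b => (V K (emb f b)).restrict (hst b b.2)
      map_one' := by
        ext w
        simp
      map_mul' := by
        intro a b
        ext w
        simp }
  have : Nontrivial ↥W := Submodule.nontrivial_iff_ne_bot.2 hW
  have h5K : (5 : K) ≠ 0 := by
    have := (map_ne_zero f).2 h5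
    rwa [map_ofNat] at this
  refine dim_six ρ (commutator_eq_top hperf) (z := ⟨z, hzP⟩) (g := g) (h := h) (ω := f ω) ?_ ?_ ?_ hg hh h5K hN
  · intro h1
    rw [← map_one f] at h1
    exact hω1 (Units.ext (f.injective h1))
  · rw [← map_pow, ← Units.val_pow_eq_pow_val, hω3, Units.val_one, map_one]
  · intro w
    apply Subtype.ext
    show V K (emb f z) (w : I27 → K) = f ω • (w : I27 → K)
    rw [V_apply, coe_emb, hz]
    have e : ((scal ω : GL I27 F) : Matrix I27 I27 F).map f = (f ω) • (1 : Matrix I27 I27 K) := by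
      ext i j
      show f ((algebraMap F (Matrix I27 I27 F) (ω : F)) i j) = _
      rw [Matrix.algebraMap_matrix_apply, Matrix.smul_apply, Matrix.one_apply]
      split_ifs <;> simp
    rw [e, Matrix.smul_mulVec, Matrix.one_mulVec]

end

end Cfsg.Agent.H251.E6

namespace Cfsg.Agent.H163.E6.Cases

open Cfsg Cfsg.Lie Module
open Cfsg.Agent.ChevalleyStructure.E6Min.Tables Cfsg.Agent.ChevalleyStructure.E6Min.Basic
  Cfsg.Agent.ChevalleyStructure.E6Min.Adjoint
open Cfsg.Agent.H65.E6Emb (emb coe_emb emb_id)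

universe u

variable {F : Type u} [Field F] [Finite F] {H : Subgroup ↥(chevE6.group F)}

theorem sevenc_big (p : ℕ) [Fact p.Prime] [CharP F p] (hp : 7 ≤ p)
    {φ : ↥(alternatingGroup (Fin 7)) →* ↥(chevE6.group F)} (hS : Sit H 7 φ)
    {ω : Fˣ} (hω : Cover φ ω) : False := by
  classical
  have : Fintype F := Fintype.ofFinite F
  have hsmall : ∀ n : ℕ, 0 < n → n < 7 → ((n : ℕ) : F) ≠ 0 := by
    intro n hn hn7 h0
    have h1 := (CharP.cast_eq_zero_iff F p n).1 h0
    exact absurd (Nat.le_of_dvd hn h1) (by omega)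
  have h2 : (2 : F) ≠ 0 := by exact_mod_cast hsmall 2 (by norm_num) (by norm_num)
  have h3 : (3 : F) ≠ 0 := by exact_mod_cast hsmall 3 (by norm_num) (by norm_num)
  have h5 : (5 : F) ≠ 0 := by exact_mod_cast hsmall 5 (by norm_num) (by norm_num)
  have hperf := Cov.perfect (by norm_num) hS.inj hω
  have hyp : H251.E6.Hyp (algebraMap F (AlgebraicClosure F)) (H251.E6.Pre φ) :=
    { perf := hperf
      two := h2
      three := h3
      six := fun W hW hst => (H251.E6.stable_dim hS.inj hω (RingHom.id F) h5 W hW (fun b hb w hw => by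
        rw [emb_id]; exact hst b hb w hw)).2
      sixK := fun W hW hst => H251.E6.stable_dim hS.inj hω _ h5 W hW hst
      no_six := fun W hst => hS.no_six (V F) (Or.inl rfl) W (fun g hg w hw => hst g hg w hw) }
  obtain ⟨c, hc, hc0⟩ := (Submodule.ne_bot_iff _).1 (H251.E6.inv_ne_bot_big p hp hS.inj hω)
  rw [Representation.mem_invariants] at hc
  have hD : H251.E6.D0 (H251.E6.Pre φ) (comb c) :=
    { der := (Der.isDer_D c).der
      comm := fun b hb => by
        obtain ⟨a, ha⟩ := hb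
        have h1 := comb_mul_of (ad_P b) c
        rw [h1]
        congr 2
        have h4 := hc a
        have h6 : L F b c = c := by
          rw [L_eq, ← ha]
          exact h4
        exact h6
      tr := Der.trace_comb c }
  have h0 := hD.eq_zero hyp h5
  apply hc0
  apply comb_injective
  rw [h0]
  simp [comb_def]

end Cfsg.Agent.H163.E6.Cases
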